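import Cfsg.Agent.Lib.Helper13.Asch.Main
import Cfsg.Agent.Lib.Helper58.Asch.D1
import Cfsg.Agent.Lib.Helper58.Asch.D1c
import Cfsg.Agent.Lib.Helper73.Asch.D1f
import Cfsg.Agent.Lib.Helper55.Asch.D3a
import Cfsg.Agent.Lib.Helper55.Asch.D3b
import Cfsg.Agent.Lib.Helper55.Asch.D3c
import Cfsg.Agent.Lib.Helper58.Asch.D6
import Cfsg.Agent.Lib.Helper55.Asch.DecCore
import Cfsg.Agent.Lib.Helper65.Asch.D9

set_option autoImplicit false

/-! # Maximal subgroups of `SL_n(q)`, `n` an odd prime: the bookkeeping -/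

namespace Cfsg.Agent.Lib.Helper64.AschRow

open Cfsg Cfsg.Geo Matrix Cfsg.Agent.Lib.Helper13.Asch Cfsg.Agent.Lib.Helper58.Asch
  Cfsg.Agent.Lib.Helper73.Asch Cfsg.Agent.Lib.Helper55.Asch Cfsg.Agent.Lib.Helper65.Asch
open scoped Kronecker MatrixGroups

variable {F : Type*} [Field F]

theorem subfield_ne_top [Fintype F] {F₀ : Subfield F} {r : ℕ} (hr : r.Prime)
    (hc : Fintype.card F = Nat.card F₀ ^ r) : F₀ ≠ ⊤ := by
  rintro rfl
  have h1 : Nat.card (⊤ : Subfield F) = Fintype.card F := by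
    rw [← Nat.card_eq_fintype_card]
    exact Nat.card_congr (Subfield.topEquiv (K := F)).toEquiv
  rw [h1] at hc
  have h2 : 1 < Fintype.card F := Fintype.one_lt_card
  have h3 : Fintype.card F ^ 1 < Fintype.card F ^ r := Nat.pow_lt_pow_right h2 hr.one_lt
  rw [pow_one] at h3
  omega

/-- order bookkeeping: the exponent `e` divides `n - 1` -/
theorem exp_dvd {n p e : ℕ} (hn : n.Prime) (he : 0 < e) (hp : 0 < p) (h1 : n ∣ p ^ e - 1)
    (hmin : ∀ d, 0 < d → d < e → ¬ n ∣ p ^ d - 1) : e ∣ n - 1 := by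
  have : Fact n.Prime := ⟨hn⟩
  have key : ∀ d, n ∣ p ^ d - 1 ↔ ((p : ZMod n)) ^ d = 1 := by
    intro d
    have hpos : 1 ≤ p ^ d := Nat.one_le_pow _ _ hp
    rw [← ZMod.natCast_eq_zero_iff, Nat.cast_sub hpos, sub_eq_zero]
    simp
  have hx : (p : ZMod n) ^ e = 1 := (key e).1 h1
  have hx0 : (p : ZMod n) ≠ 0 := by
    intro h0
    rw [h0, zero_pow he.ne'] at hx
    exact zero_ne_one hx
  have hord : orderOf (p : ZMod n) = e := by
    have hd : orderOf (p : ZMod n) ∣ e := orderOf_dvd_of_pow_eq_one hx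
    have hle := Nat.le_of_dvd he hd
    have hpos : 0 < orderOf (p : ZMod n) := Nat.pos_of_dvd_of_pos hd he
    by_contra hne
    exact hmin _ hpos (lt_of_le_of_ne hle hne) ((key _).2 (pow_orderOf_eq_one _))
  rw [← hord]
  exact orderOf_dvd_of_pow_eq_one (ZMod.pow_card_sub_one_eq_one hx0)

theorem prime_row [Fintype F] (n : ℕ) (hn : n.Prime) (hn3 : 3 ≤ n)
    (H : Subgroup (GL (Fin n) F)) (hH : IsMaximalIn (specialLinear (Fin n) F) H) :
    (∃ W : Submodule F (Fin n → F), W ≠ ⊥ ∧ W ≠ ⊤ ∧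
      H = subspaceStabilizer W ⊓ specialLinear (Fin n) F) ∨
    (5 ≤ Fintype.card F ∧ ∃ D : Fin n → Submodule F (Fin n → F), IsMDecomposition 1 D ∧
      H = decompositionStabilizer D ⊓ specialLinear (Fin n) F) ∨
    (∃ K : Subalgebra F (Matrix (Fin n) (Fin n) F), IsFieldSubalgebra n K ∧
      H = subalgebraNormalizer K ⊓ specialLinear (Fin n) F) ∨
    (∃ (F₀ : Subfield F) (r : ℕ) (P : GL (Fin n) F), r.Prime ∧
      Fintype.card F = Nat.card F₀ ^ r ∧ H = subfieldSubgroup F₀ P ⊓ specialLinear (Fin n) F) ∨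
    ((∃ p e : ℕ, p.Prime ∧ CharP F p ∧ Fintype.card F = p ^ e ∧ Odd e ∧ e ∣ n - 1 ∧
        n ∣ p ^ e - 1 ∧ ∀ d, 0 < d → d < e → ¬ n ∣ p ^ d - 1) ∧
      ∃ R : Subgroup (GL (Fin n) F), IsLinearSymplecticTypeData n R ∧
        H = subgroupNormalizer R ⊓ specialLinear (Fin n) F) ∨
    (Odd (Fintype.card F) ∧ ∃ Q : (Fin n → F) → F, IsNondegenerateQuadraticForm Q ∧
      H = quadSimilarityGroup Q ⊓ specialLinear (Fin n) F) ∨
    (∃ (σ : F ≃+* F) (f : (Fin n → F) → (Fin n → F) → F), IsUnitaryForm σ f ∧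
      H = similarityGroup f ⊓ specialLinear (Fin n) F) ∨
    InLinearResidualClass H := by
  have hcard : 3 ≤ Fintype.card (Fin n) := by simpa using hn3
  have hodd : Odd n := hn.odd_of_ne_two (by omega)
  -- the three recurring conclusions
  have cStab : ∀ W : Submodule F (Fin n → F), W ≠ ⊥ → W ≠ ⊤ → H ≤ subspaceStabilizer W →
      H = subspaceStabilizer W ⊓ specialLinear (Fin n) F := fun W h0 h1 h =>
    eq_inf_of_maximal hH h (sl_not_le_stab W h0 h1)
  have cQuad : ∀ Q : (Fin n → F) → F, IsNondegenerateQuadraticForm Q → H ≤ quadSimilarityGroup Q →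
      H = quadSimilarityGroup Q ⊓ specialLinear (Fin n) F := fun Q hQ h =>
    eq_inf_of_maximal hH h (sl_not_le_quadSim hcard Q hQ)
  have cUni : ∀ (σ : F ≃+* F) (f : (Fin n → F) → (Fin n → F) → F), IsUnitaryForm σ f →
      H ≤ similarityGroup f → H = similarityGroup f ⊓ specialLinear (Fin n) F := fun σ f hf h =>
    eq_inf_of_maximal hH h (sl_not_le_sim hcard f hf.add_left hf.nondegenerate)
  rcases main n hn3 H with hc | hres
  swap
  · exact Or.inr (Or.inr (Or.inr (Or.inr (Or.inr (Or.inr (Or.inr hres))))))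
  rcases hc with ⟨W, h0, h1, h⟩ | ⟨t, m, D, hD, h⟩ | ⟨r, K, hr, hK, h⟩ | ⟨a, b, e, P, ha, hb, h⟩ |
    ⟨F₀, r, P, hr, hc, h⟩ | ⟨r, m, R, hR, hm, hnr, h⟩ | ⟨m, t, e, P, hm, ht, h⟩ |
    ⟨f, hf, he, h4, h⟩ | ⟨σ, f, hf, h⟩ | ⟨Q, hQ, ho, h⟩
  · exact Or.inl ⟨W, h0, h1, cStab W h0 h1 h⟩
  · -- decompositions
    have htm : t * m = n := by simpa using card_of_decomp D hD
    have ht : t = n := by
      have hdvd : t ∣ n := ⟨m, htm.symm⟩
      rcases (Nat.dvd_prime hn).1 hdvd with h1 | h1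
      · have := hD.two_le; omega
      · exact h1
    subst ht
    have hm : m = 1 := by
      have ht0 : 0 < t := by omega
      exact Nat.eq_of_mul_eq_mul_left ht0 (by rw [htm, mul_one])
    subst hm
    by_cases hq : 5 ≤ Fintype.card F
    · exact Or.inr (Or.inl ⟨hq, D, hD, eq_inf_of_maximal hH h (sl_not_le_decomp D hD)⟩)
    · have hq1 : 1 < Fintype.card F := Fintype.one_lt_card
      have hq' : Fintype.card F = 2 ∨ Fintype.card F = 3 ∨ Fintype.card F = 4 := by omega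
      rcases hq' with hq' | hq' | hq'
      · obtain ⟨W, h0, h1, hW⟩ := monomial_two hq' D hD
        exact Or.inl ⟨W, h0, h1, cStab W h0 h1 (h.trans hW)⟩
      · obtain ⟨Q, hQ, hW⟩ := monomial_three hq' D hD
        exact Or.inr (Or.inr (Or.inr (Or.inr (Or.inr (Or.inl
          ⟨by rw [hq']; decide, Q, hQ, cQuad Q hQ (h.trans hW)⟩)))))
      · obtain ⟨σ, f, hf, hW⟩ := monomial_four hq' D hD
        exact Or.inr (Or.inr (Or.inr (Or.inr (Or.inr (Or.inr (Or.inl
          ⟨σ, f, hf, cUni σ f hf (h.trans hW)⟩))))))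
  · -- extension fields
    have hdvd : r ∣ n := by simpa using dvd_card_of_field K hK
    have hrn : r = n := (Nat.prime_dvd_prime_iff_eq hr hn).1 hdvd
    subst hrn
    exact Or.inr (Or.inr (Or.inl ⟨K, hK, eq_inf_of_maximal hH h (sl_not_le_field hcard hr K hK)⟩))
  · -- tensor products
    exfalso
    have hab : n = a * b := by simpa using Fintype.card_congr e
    have hdvd : a ∣ n := ⟨b, hab⟩
    rcases (Nat.dvd_prime hn).1 hdvd with h1 | h1
    · omega
    · subst h1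
      have : a * 1 < a * b := Nat.mul_lt_mul_of_pos_left (by omega) (by omega)
      omega
  · -- subfields
    exact Or.inr (Or.inr (Or.inr (Or.inl ⟨F₀, r, P, hr, hc, eq_inf_of_maximal hH h
      (sl_not_le_subfield (by omega) F₀ (subfield_ne_top hr hc) P)⟩)))
  · -- symplectic type
    have hrp : r.Prime := hR.symplecticType.prime
    have hrn : r = n := by
      have hdvd : r ∣ n := by rw [hnr]; exact dvd_pow_self r (by omega)
      exact (Nat.prime_dvd_prime_iff_eq hrp hn).1 hdvd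
    subst hrn
    obtain ⟨p, e, hp, hch, hq, hne, hcase⟩ := sympData_arith R hcard hR
    rcases hcase with ⟨-, hoe, hd, hmin⟩ | ⟨h2, -, -⟩
    · exact Or.inr (Or.inr (Or.inr (Or.inr (Or.inl ⟨⟨p, e, hp, hch, hq, hoe,
        exp_dvd hn hoe.pos hp.pos hd hmin, hd, hmin⟩, R, hR,
        eq_inf_of_maximal hH h (sl_not_le_sympNormalizer hcard R hR)⟩))))
    · omega
  · -- tensor powers
    exfalso
    have hmt : n = m ^ t := by simpa using Fintype.card_congr e
    have hdvd : m ∣ n := by rw [hmt]; exact dvd_pow_self m (by omega)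
    rcases (Nat.dvd_prime hn).1 hdvd with h1 | h1
    · omega
    · subst h1
      have : m ^ 1 < m ^ t := Nat.pow_lt_pow_right (by omega) (by omega)
      rw [pow_one, ← hmt] at this
      exact lt_irrefl _ this
  · -- symplectic forms
    exfalso
    exact (Nat.not_even_iff_odd.2 hodd) he
  · exact Or.inr (Or.inr (Or.inr (Or.inr (Or.inr (Or.inr (Or.inl ⟨σ, f, hf, cUni σ f hf h⟩))))))
  · exact Or.inr (Or.inr (Or.inr (Or.inr (Or.inr (Or.inl ⟨ho, Q, hQ, cQuad Q hQ h⟩)))))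

end Cfsg.Agent.Lib.Helper64.AschRow
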